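import Cfsg.Agent.FusionAlperin.ConstrainedGroup

/-!
The normal subgroup of a strictly `p`-constrained group belonging to a normal subsystem.
-/

set_option autoImplicit false

open Cfsg Cfsg.FusionSystem
open Cfsg.Agent.FusionSys
open scoped commutatorElement

namespace Cfsg.Agent.FusionAlperin

universe u

variable {G : Type u} [Group G] [Finite G] {p : ℕ} [Fact p.Prime]

/-- `F_T(H)` is normal when `H` is normal and `T = S ∩ H`. -/
theorem fusionSystemOfSubgroup_normal (S : Sylow p G) {H T : Subgroup G} (hn : H.Normal)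
    (hTH : T ≤ H) (hT : T = (S : Subgroup G) ⊓ H) :
    (fusionSystemOfSubgroup H T hTH).IsNormalIn (Cfsg.groupFusionSystem (S : Subgroup G)) p := by
  subst hT
  exact Cfsg.Agent.S5118.result p S H

/-- The subgroup generated by `T` and the `p'`-elements of `actGroup`. -/
def subsystemGroup (p : ℕ) {T : Subgroup G} (E : FusionSystem T) (R : Subgroup G) [R.Normal] :
    Subgroup G :=
  Subgroup.closure ((T : Set G) ∪ {x | x ∈ actGroup p E R ∧ Nat.Coprime (orderOf x) p})

section Setup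

variable (S : Sylow p G) {T : Subgroup G} {E : FusionSystem T}

local notation "𝓕" => Cfsg.groupFusionSystem (S : Subgroup G)
local notation "𝓠" => Cfsg.pCore p G

variable {R : Subgroup G} [R.Normal]
variable (hG : Subgroup.centralizer ((Cfsg.pCore p G : Subgroup G) : Set G) ≤ Cfsg.pCore p G)
  (hE : E.IsNormalIn (Cfsg.groupFusionSystem (S : Subgroup G)) p)
  (hRe : R = T ⊓ Cfsg.pCore p G)

include hE hRe

theorem subsystemGroup_le : subsystemGroup p E R ≤ actGroup p E R :=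
  (Subgroup.closure_le _).2 fun _ hx => hx.elim (fun h => T_le_actGroup S hE.1.2.2 hRe h) And.left

include hG

theorem exists_decomp_actGroup {x : G} (hxS : x ∈ (S : Subgroup G))
    (hx : x ∈ actGroup p E R) :
    ∃ t ∈ T, ∃ m ∈ 𝓠, m ∈ actGroup p E R ∧ x = t * m := by
  have hEi := hE.1.2.2
  have hsyl := (sylIn_autT S hEi hE.1.1 hRe).1
  set X := ((S : Subgroup G) ⊓ actGroup p E R).map (MulAut.conjNormal (H := R))
  have hX : X ≤ autInducedBy T R := by
    refine hsyl.le_of_ge ?_ ((S.2.to_le inf_le_left).map _) fun b hb => ?_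
    · rintro _ ⟨y, hy, rfl⟩
      exact hy.2.2
    · obtain ⟨t, ht, hte⟩ := mem_autInducedBy.1 hb
      exact ⟨t, ⟨hEi.2.1.1 ht, T_le_actGroup S hEi hRe ht⟩,
        MulEquiv.ext fun z => Subtype.ext ((MulAut.conjNormal_apply _ _).trans (hte z).symm)⟩
  obtain ⟨t, ht, hte⟩ := mem_autInducedBy.1 (hX ⟨x, ⟨hxS, hx⟩, rfl⟩)
  have hm : t⁻¹ * x ∈ actGroup p E R :=
    mul_mem (Subgroup.inv_mem _ (T_le_actGroup S hEi hRe ht)) hx
  refine ⟨t, ht, t⁻¹ * x, mem_pCore_of_moves hG (inf_le_core hRe) hm.1 ?_, hm,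
    (mul_inv_cancel_left t x).symm⟩
  rw [map_mul, map_inv, inv_mul_eq_one]
  exact MulEquiv.ext fun z => Subtype.ext ((MulAut.conjNormal_apply _ _).trans (hte z).symm)

theorem subsystemGroup_inf_le : (S : Subgroup G) ⊓ subsystemGroup p E R ≤ T := by
  have hEi := hE.1.2.2
  have hT := hEi.2.1
  have hK := actGroup_normal S hEi hRe (p := p)
  have hsyl : SylIn p ((S : Subgroup G) ⊓ actGroup p E R) (actGroup p E R) :=
    sylIn_inf_of_normal S _
  set K := actGroup p E R
  obtain ⟨-, P, hP⟩ := hsyl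
  have hfoc : Subgroup.focalSubgroup (P : Subgroup K) ≤ T.subgroupOf K := by
    rw [Subgroup.focalSubgroup_def, Subgroup.closure_le]
    rintro _ ⟨hc, x, hx, u, rfl⟩
    rw [hP] at hc hx
    obtain ⟨t, ht, m, hm, -, hxe⟩ := exists_decomp_actGroup S hG hE hRe hx.1 x.2
    show ((x : G) * u * (x : G)⁻¹ * (u : G)⁻¹) ∈ T
    have h1 : m * u * m⁻¹ * (u : G)⁻¹ ∈ R := by
      have := R.inv_mem (u.2.1 m hm)
      simpa [mul_assoc] using this
    have h2 := (inferInstance : R.Normal).conj_mem _ h1 t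
    have e : (x : G) * u * (x : G)⁻¹ * (u : G)⁻¹ =
        t * (m * u * m⁻¹ * (u : G)⁻¹) * t⁻¹ * (t * (u * t⁻¹ * (u : G)⁻¹)) := by
      rw [show (x : G) = t * m from hxe]; group
    have hS : (x : G) * u * (x : G)⁻¹ * (u : G)⁻¹ ∈ (S : Subgroup G) := hc.1
    rw [e] at hS ⊢
    have h3 : t * (u * t⁻¹ * (u : G)⁻¹) ∈ (S : Subgroup G) := by
      have := (S : Subgroup G).mul_mem
        ((S : Subgroup G).inv_mem (hT.1 (inf_le_T hRe h2))) hS
      rwa [inv_mul_cancel_left] at this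
    have h4 : (u : G) * t⁻¹ * (u : G)⁻¹ ∈ (S : Subgroup G) := by
      have := (S : Subgroup G).mul_mem ((S : Subgroup G).inv_mem (hT.1 ht)) h3
      rwa [inv_mul_cancel_left] at this
    exact T.mul_mem (inf_le_T hRe h2)
      (T.mul_mem ht (sc_conj_group S hT (T.inv_mem ht) h4))
  set J : Subgroup K := T.subgroupOf K ⊔ _root_.commutator K with hJ
  have hJn : J.Normal := by
    refine Subgroup.Normal.mk fun a ha g => ?_
    have h1 : g * a * g⁻¹ * a⁻¹ ∈ J :=
      Subgroup.mem_sup_right (Subgroup.commutator_mem_commutator (Subgroup.mem_top g) (Subgroup.mem_top a))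
    simpa using J.mul_mem h1 ha
  set π := QuotientGroup.mk' J
  have hcomm : ∀ a b : K ⧸ J, a * b = b * a := by
    intro a b
    obtain ⟨x, rfl⟩ := QuotientGroup.mk'_surjective J a
    obtain ⟨y, rfl⟩ := QuotientGroup.mk'_surjective J b
    rw [← map_mul, ← map_mul]
    refine (QuotientGroup.eq).2 (Subgroup.mem_sup_right ?_)
    have h1 := Subgroup.commutator_mem_commutator (Subgroup.mem_top (y⁻¹)) (Subgroup.mem_top (x⁻¹))
    have e : (x * y)⁻¹ * (y * x) = ⁅y⁻¹, x⁻¹⁆ := by rw [commutatorElement_def]; group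
    rw [e]
    exact h1
  obtain ⟨a, m, hm, hcard⟩ := Nat.exists_eq_pow_mul_and_not_dvd
    (Nat.card_pos (α := K ⧸ J)).ne' p (Fact.out : p.Prime).ne_one
  have hmp : Nat.Coprime m p := (((Fact.out : p.Prime).coprime_iff_not_dvd).2 hm).symm
  let W : Subgroup K :=
    { carrier := {k | π k ^ m = 1}
      one_mem' := by simp
      mul_mem' := fun {x y} hx hy => by
        show π (x * y) ^ m = 1
        rw [map_mul, (show Commute (π x) (π y) from hcomm _ _).mul_pow, hx, hy, mul_one]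
      inv_mem' := fun {x} hx => by
        show π x⁻¹ ^ m = 1
        rw [map_inv, inv_pow, hx, inv_one] }
  have hle := subsystemGroup_le S hE hRe (p := p)
  have hW : subsystemGroup p E R ≤ W.map K.subtype := by
    refine (Subgroup.closure_le _).2 fun x hx => ?_
    have hxK : x ∈ K := hx.elim (fun h => T_le_actGroup S hEi hRe h) And.left
    refine ⟨⟨x, hxK⟩, ?_, rfl⟩
    show π ⟨x, hxK⟩ ^ m = 1
    rcases hx with hx | ⟨-, hx⟩
    · rw [show π ⟨x, hxK⟩ = 1 from (QuotientGroup.eq_one_iff _).2 (Subgroup.mem_sup_left hx),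
        one_pow]
    · have h1 : orderOf (π ⟨x, hxK⟩) ∣ orderOf x := by
        rw [← Subgroup.orderOf_mk x hxK]
        exact orderOf_map_dvd π _
      have h2 : orderOf (π ⟨x, hxK⟩) ∣ p ^ a * m := hcard ▸ orderOf_dvd_natCard _
      exact orderOf_dvd_iff_pow_eq_one.1
        ((Nat.Coprime.coprime_dvd_left h1 hx |>.pow_right a).dvd_of_dvd_mul_left h2)
  rintro s ⟨hsS, hsH⟩
  obtain ⟨k, hk, rfl⟩ := hW hsH
  change (k : G) ∈ (S : Subgroup G) at hsS
  change π k ^ m = 1 at hk
  obtain ⟨i, hi⟩ := S.2 ⟨k, hsS⟩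
  have hi' : π k ^ p ^ i = 1 := by
    rw [← map_pow, show k ^ p ^ i = 1 from Subtype.ext (by simpa using congrArg Subtype.val hi),
      map_one]
  have hkJ : k ∈ J := (QuotientGroup.eq_one_iff k).1 (coprime_trivial hmp hk hi')
  haveI : (_root_.commutator K).Normal := inferInstance
  obtain ⟨t, ht, c, hc, rfl⟩ := Subgroup.mem_sup_of_normal_right.1 hkJ
  have hcP : c ∈ (P : Subgroup K) := by
    rw [hP]
    refine ⟨?_, c.2⟩
    have h5 := (S : Subgroup G).mul_mem
      ((S : Subgroup G).inv_mem (hT.1 (show (t : G) ∈ T from ht))) hsS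
    rw [Subgroup.coe_mul, inv_mul_cancel_left] at h5
    exact h5
  haveI : (P : Subgroup K).FiniteIndex := inferInstance
  have := hfoc ((Subgroup.commutator_inf_eq_focalSubgroup P).le ⟨hc, hcP⟩)
  exact T.mul_mem ht this

theorem T_eq_inf_subsystemGroup : T = (S : Subgroup G) ⊓ subsystemGroup p E R :=
  le_antisymm (le_inf hE.1.2.2.2.1.1 fun _ ht => Subgroup.subset_closure (Or.inl ht))
    (subsystemGroup_inf_le S hG hE hRe)

theorem autGroup_le_subsystemGroup_map :
    E.autGroup R ≤ (subsystemGroup p E R).map MulAut.conjNormal := by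
  refine le_of_sylow_pprime (sylIn_autT S hE.1.2.2 hE.1.1 hRe).1 (fun b hb => ?_) fun a ha ho => ?_
  · obtain ⟨t, ht, hte⟩ := mem_autInducedBy.1 hb
    exact ⟨t, Subgroup.subset_closure (Or.inl ht),
      MulEquiv.ext fun z => Subtype.ext ((MulAut.conjNormal_apply _ _).trans (hte z).symm)⟩
  · obtain ⟨x, hx, rfl⟩ := autGroup_le_map S hG hE.1.2.2 hE.1.1 hRe hE ha
    obtain ⟨k, hk, hke⟩ := exists_coprime_pow (MulAut.conjNormal (H := R)) (g := x) ho
    exact ⟨x ^ k, Subgroup.subset_closure (Or.inr ⟨pow_mem hx k, hk⟩), hke⟩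

theorem subsystemGroup_normal : (subsystemGroup p E R).Normal := by
  have hEi := hE.1.2.2
  have hT := hEi.2.1
  have hK := actGroup_normal S hEi hRe (p := p)
  set H := subsystemGroup p E R with hH
  have hgen : ∀ g : G, (∀ t ∈ T, g * t * g⁻¹ ∈ H) → ∀ h ∈ H, g * h * g⁻¹ ∈ H := by
    intro g hg h hh
    have : H ≤ H.comap (MulAut.conj g).toMonoidHom := by
      refine (Subgroup.closure_le _).2 ?_
      rintro x (hx | ⟨hx, ho⟩)
      · exact hg x hx
      · refine Subgroup.subset_closure (Or.inr ⟨hK.conj_mem x hx g, ?_⟩)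
        show (orderOf (MulAut.conj g x)).Coprime p
        rw [MulEquiv.orderOf_eq]
        exact ho
    exact this hh
  refine ⟨fun h hh g => hgen g (fun t ht => ?_) h hh⟩
  -- move the conjugate of `t` into `S`
  have hx : g * t * g⁻¹ ∈ actGroup p E R := hK.conj_mem t (T_le_actGroup S hEi hRe ht) g
  have hp : IsPGroup p (Subgroup.zpowers (g * t * g⁻¹)) := by
    have h1 := (S.2.to_le (Subgroup.zpowers_le.2 (hT.1 ht))).map (MulAut.conj g).toMonoidHom
    rwa [MonoidHom.map_zpowers] at h1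
  obtain ⟨k, hk, hkc⟩ := (sylIn_inf_of_normal (p := p) S (actGroup p E R)).exists_conj_le
    (Subgroup.zpowers_le.2 hx) hp
  have hkS := (hkc _ (Subgroup.mem_zpowers _)).1
  have ht' : k * (g * t * g⁻¹) * k⁻¹ ∈ T := by
    have e : k * (g * t * g⁻¹) * k⁻¹ = (k * g) * t * (k * g)⁻¹ := by group
    rw [e] at hkS ⊢
    exact sc_conj_group S hT ht hkS
  -- write `k⁻¹` as a product
  obtain ⟨h', hh', he⟩ :=
    autGroup_le_subsystemGroup_map S hG hE hRe ((actGroup p E R).inv_mem hk).2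
  have hm : h'⁻¹ * k⁻¹ ∈ actGroup p E R :=
    mul_mem (Subgroup.inv_mem _ (subsystemGroup_le S hE hRe hh')) (Subgroup.inv_mem _ hk)
  have hmQ : h'⁻¹ * k⁻¹ ∈ 𝓠 := by
    refine mem_pCore_of_moves hG (inf_le_core hRe) hm.1 ?_
    rw [map_mul, map_inv, inv_mul_eq_one]
    exact he
  have h1 : (h'⁻¹ * k⁻¹) * (k * (g * t * g⁻¹) * k⁻¹) * (h'⁻¹ * k⁻¹)⁻¹ ∈ H :=
    hgen _ (fun u hu => Subgroup.subset_closure
      (Or.inl (sc_conj_mem hT (pCore_le_of_sylow S hmQ) hu))) _
      (Subgroup.subset_closure (Or.inl ht'))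
  have h2 := H.mul_mem (H.mul_mem hh' h1) (H.inv_mem hh')
  have e : h' * ((h'⁻¹ * k⁻¹) * (k * (g * t * g⁻¹) * k⁻¹) * (h'⁻¹ * k⁻¹)⁻¹) * h'⁻¹ =
      g * t * g⁻¹ := by group
  rwa [e] at h2

theorem subsystemGroup_hom (hTH : T ≤ subsystemGroup p E R) (P : Subgroup G) :
    E.Hom P = (fusionSystemOfSubgroup (subsystemGroup p E R) T hTH).Hom P := by
  have hEi := hE.1.2.2
  set D := fusionSystemOfSubgroup (subsystemGroup p E R) T hTH
  have hD := fusionSystemOfSubgroup_normal S (subsystemGroup_normal S hG hE hRe) hTH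
    (T_eq_inf_subsystemGroup S hG hE hRe)
  have hF := groupSystem_saturated (p := p) S
  have hRT := inf_le_T hRe
  have hRS := hRT.trans hEi.2.1.1
  have hsc : (𝓕).StronglyClosed R := by
    refine sc_of_elements hRS fun P φ hφ x hx => ?_
    obtain ⟨-, -, g, hg⟩ := hφ
    rw [hg x]
    exact (inferInstance : R.Normal).conj_mem _ hx g
  have hc := inf_tCentric S hG hEi hRe
  have h1 : E.autGroup R ≤ D.autGroup R := fun a ha => by
    obtain ⟨h, hh, rfl⟩ := autGroup_le_subsystemGroup_map S hG hE hRe ha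
    exact autGroup_fusionSystemOfSubgroup_mem hRT hh fun x => MulAut.conjNormal_apply _ _
  have h2 : D.autGroup R ≤ E.autGroup R := fun a ha => by
    obtain ⟨-, -, h, hh, he⟩ := autGroup_mem_hom D hRT ha
    have e : MulAut.conjNormal h = a :=
      MulEquiv.ext fun z => Subtype.ext ((MulAut.conjNormal_apply _ _).trans (he z).symm)
    exact e ▸ (subsystemGroup_le S hE hRe hh).2
  exact Set.Subset.antisymm
    (le_of_autGroup_centric S.2 hF hEi hE.1.1 hD.1.2.2 hD.1.1 hsc hc h1 P)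
    (le_of_autGroup_centric S.2 hF hD.1.2.2 hD.1.1 hEi hE.1.1 hsc hc h2 P)

theorem eq_subsystemGroup {H' : Subgroup G} (hTH' : T ≤ H') (hn : H'.Normal)
    (hsyl : SylIn p T H')
    (hhom : ∀ P : Subgroup G, E.Hom P = (fusionSystemOfSubgroup H' T hTH').Hom P) :
    H' = subsystemGroup p E R := by
  have hEi := hE.1.2.2
  have hRT := inf_le_T hRe
  have hQH : 𝓠 ⊓ H' ≤ R := fun x hx => by
    have hxT : x ∈ T := hsyl.le_of_ge (X := (S : Subgroup G) ⊓ H') inf_le_right
      (S.2.to_le inf_le_left) (le_inf hEi.2.1.1 hTH') ⟨pCore_le_of_sylow S hx.1, hx.2⟩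
    exact hRe ▸ ⟨hxT, hx.1⟩
  have hact : H' ≤ actGroup p E R := fun h hh => by
    refine ⟨fun q hq => hQH ⟨?_, ?_⟩, ?_⟩
    · exact (𝓠).mul_mem ((inferInstance : (𝓠).Normal).conj_mem q hq h) ((𝓠).inv_mem hq)
    · have := H'.mul_mem hh (hn.conj_mem h⁻¹ (H'.inv_mem hh) q)
      simpa [mul_assoc] using this
    · refine (mem_autGroup_iff_hom E hRT).2 ?_
      rw [hhom R]
      exact ⟨hRT, fun x => hRT (MulAut.conjNormal h x).2, h, hh,
        fun x => MulAut.conjNormal_apply _ _⟩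
  refine le_antisymm (le_of_sylow_pprime hsyl (fun t ht => Subgroup.subset_closure (Or.inl ht))
    fun x hx ho => Subgroup.subset_closure (Or.inr ⟨hact hx, ho⟩)) ?_
  refine (Subgroup.closure_le _).2 ?_
  rintro x (hx | ⟨hxK, ho⟩)
  · exact hTH' hx
  obtain ⟨-, -, h, hh, he⟩ := (hhom R) ▸ autGroup_mem_hom E hRT hxK.2
  have hmQ : h⁻¹ * x ∈ 𝓠 := by
    refine mem_pCore_of_moves hG (inf_le_core hRe)
      (mul_mem (Subgroup.inv_mem _ (hact hh).1) hxK.1) ?_
    rw [map_mul, map_inv, inv_mul_eq_one]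
    exact MulEquiv.ext fun z => Subtype.ext ((MulAut.conjNormal_apply _ _).trans (he z).symm)
  obtain ⟨i, hi⟩ := Cores.pCore_isPGroup (p := p) (G := G) ⟨_, hmQ⟩
  have hi' : (h⁻¹ * x) ^ p ^ i = 1 := by simpa using congrArg Subtype.val hi
  set π := QuotientGroup.mk' H'
  have e : π (h⁻¹ * x) = π x := by
    rw [map_mul, show π h⁻¹ = 1 from (QuotientGroup.eq_one_iff _).2 (H'.inv_mem hh), one_mul]
  have h2 : π x ^ p ^ i = 1 := by rw [← e, ← map_pow, hi', map_one]
  have h1 : π x ^ orderOf x = 1 := by rw [← map_pow, pow_orderOf_eq_one, map_one]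
  exact (QuotientGroup.eq_one_iff x).1 (coprime_trivial ho h1 h2)

end Setup

end Cfsg.Agent.FusionAlperin
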