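import Cfsg.Agent.FusionAlperin.ConstrainedCore
import Cfsg.Agent.FusionAlperin.SubgroupSystem
import Cfsg.Agent.S5118

/-!
Constrained fusion systems of finite groups and their subnormal subgroups.
-/

set_option autoImplicit false

open Cfsg Cfsg.FusionSystem
open Cfsg.Agent.FusionSys

namespace Cfsg.Agent.FusionAlperin

universe u

variable {G : Type u} [Group G] [Finite G] {p : ℕ} [Fact p.Prime]

theorem isPGroup_subgroupOf {S : Subgroup G} (hS : IsPGroup p S) (H : Subgroup G) :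
    IsPGroup p (S.subgroupOf H) :=
  hS.comap_of_injective H.subtype H.subtype_injective

/-- A subnormal subgroup of a group with constrained system has a constrained system, and its
part of the Sylow subgroup is a Sylow subgroup. -/
theorem constrained_subgroupOf (S : Sylow p G)
    (hF : (Cfsg.groupFusionSystem (S : Subgroup G)).IsConstrained p) {H : Subgroup G}
    (hH : H.IsSubnormal) :
    SylIn p ((S : Subgroup G) ⊓ H) H ∧
      (Cfsg.groupFusionSystem ((S : Subgroup G).subgroupOf H)).IsConstrained p := by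
  induction hH with
  | top =>
    refine ⟨sylIn_inf_of_normal S ⊤, ?_⟩
    set ι : ↥(S : Subgroup G) →* ↥(⊤ : Subgroup G) :=
      (Subgroup.topEquiv.symm.toMonoidHom).comp (S : Subgroup G).subtype
    refine constrained_of_realized S.2 hF (ι := ι) ⟨?_, fun P hP φ hφ => ?_⟩ ?_
    · exact fun a b h => Subtype.ext (congrArg Subtype.val h :)
    · refine ⟨fun ⟨_, _, g, hg⟩ => ⟨⟨g, trivial⟩, fun x => Subtype.ext (hg x)⟩, fun ⟨g, hg⟩ => ?_⟩
      exact ⟨hP, hφ, g, fun x => congrArg Subtype.val (hg x)⟩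
    · ext x
      refine ⟨?_, fun hx => ⟨⟨x, hx⟩, Subtype.ext rfl⟩⟩
      rintro ⟨s, rfl⟩
      exact s.2
  | step H K hle _ hN ih =>
    obtain ⟨⟨-, P₀, hP₀⟩, hK⟩ := ih
    rw [Subgroup.inf_subgroupOf_right] at hP₀
    rw [← hP₀] at hK
    haveI := hN
    have hnorm := Cfsg.Agent.S5118.result p P₀ (H.subgroupOf K)
    have hc := constrained_of_weaklyNormal P₀.2 hK hnorm.1
    have hsyl' := sylIn_inf_of_normal P₀ (H.subgroupOf K)
    set T := (P₀ : Subgroup K) ⊓ H.subgroupOf K
    have hT : ∀ {x : K}, x ∈ T ↔ (x : G) ∈ (S : Subgroup G) ⊓ H := fun {x} => by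
      show (x ∈ (P₀ : Subgroup K) ∧ x ∈ H.subgroupOf K) ↔ _
      rw [hP₀]
      rfl
    refine ⟨?_, ?_⟩
    · obtain ⟨-, P₁, hP₁⟩ := sylIn_inf_of_normal S (⊤ : Subgroup G)
      refine ⟨inf_le_right, ?_⟩
      obtain ⟨-, P₂, hP₂⟩ := hsyl'
      let e := Subgroup.subgroupOfEquivOfLe hle
      refine ⟨P₂.mapSurjective (f := e.toMonoidHom) e.surjective, ?_⟩
      show ((P₂ : Subgroup (H.subgroupOf K)).map e.toMonoidHom) = _
      rw [hP₂]
      ext x
      constructor
      · rintro ⟨y, hy, rfl⟩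
        exact (hT.1 hy : _)
      · intro hx
        exact ⟨⟨⟨x, hle x.2⟩, x.2⟩, hT.2 hx, Subtype.ext rfl⟩
    · let ι : ↥T →* ↥H := MonoidHom.mk' (fun x => ⟨((x : K) : G), (hT.1 x.2).2⟩)
        fun a b => Subtype.ext rfl
      refine constrained_of_realized (P₀.2.to_le inf_le_left) hc (ι := ι)
        ⟨?_, fun P hP φ hφ => ?_⟩ ?_
      · intro a b h
        exact Subtype.ext (Subtype.ext (congrArg Subtype.val h :))
      · refine ⟨?_, fun ⟨g, hg⟩ => ?_⟩
        · rintro ⟨-, -, g, hgH, hg⟩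
          exact ⟨⟨(g : G), hgH⟩, fun x => Subtype.ext (congrArg Subtype.val (hg x) :)⟩
        · exact ⟨hP, hφ, ⟨g, hle g.2⟩, g.2, fun x =>
            Subtype.ext (congrArg Subtype.val (hg x) :)⟩
      · ext x
        constructor
        · rintro ⟨y, rfl⟩
          exact (hT.1 y.2).1
        · intro hx
          exact ⟨⟨⟨x, hle x.2⟩, hT.2 ⟨hx, x.2⟩⟩, Subtype.ext rfl⟩

end Cfsg.Agent.FusionAlperin
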