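import Cfsg.Agent.FusionAlperin.NormalSubgroupSystems
import Cfsg.Prelude.Def_FusionComponents

/-!
The layer of a system without components, and central products with the trivial system.
-/

set_option autoImplicit false

open Cfsg Cfsg.FusionSystem
open Cfsg.Agent.FusionSys

namespace Cfsg.Agent.FusionAlperin

universe u

variable {Ω : Type u} [Group Ω] {S : Subgroup Ω} {p : ℕ} [Finite S] [Fact p.Prime]
  {F : FusionSystem S}

/-- Without components the trivial system is a layer. -/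
theorem layer_trivial (hS : IsPGroup p S) (hF : F.IsSaturated p)
    (h : ¬ ∃ (T : Subgroup Ω) (C : FusionSystem T), C.IsComponentIn F p) :
    (Cfsg.innerFusionSystem (⊥ : Subgroup Ω)).IsLayerOf F p := by
  refine ⟨innerSystem_normal hS hF (isNormal_bot F), fun U C hC => absurd ⟨U, C, hC⟩ h, ?_⟩
  rintro R D - - P φ ⟨hP, g, hg, hge⟩
  refine mem_hom_congr D (subtype_mem D (hP.trans bot_le)) fun x => ?_
  rw [hge x, Subgroup.mem_bot.1 hg]
  simp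

omit [Finite S] [Fact p.Prime] in
/-- An inner system is a central product of itself with the trivial system. -/
theorem inner_centralProduct_bot (Q : Subgroup Ω) :
    IsCentralProductOf (Cfsg.innerFusionSystem Q) (Cfsg.innerFusionSystem (⊥ : Subgroup Ω))
      (Cfsg.innerFusionSystem Q) := by
  refine ⟨Cfsg.innerFusionSystem (Q.prod ⊥), fun P φ => ⟨?_, ?_⟩, ⊥,
    (MonoidHom.fst Ω Ω).comp (Q.prod ⊥).subtype, bot_le, bot_inf_eq _, bot_inf_eq _,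
    fun x _ => rfl, fun y hy => (Subgroup.mem_bot.1 hy.2).symm, bot_le, fun s => ?_, ?_,
    fun P' φ' => ⟨?_, ?_⟩⟩
  · rintro ⟨hP, g, hg, h⟩
    refine ⟨hP, Cfsg.conjHom _ g.1, ⟨?_, g.1, hg.1, fun _ => rfl⟩, Cfsg.conjHom _ g.2,
      ⟨?_, g.2, hg.2, fun _ => rfl⟩, fun x h₁ h₂ => h x⟩
    · rintro _ ⟨x, hx, rfl⟩
      exact (hP hx).1
    · rintro _ ⟨x, hx, rfl⟩
      exact (hP hx).2
  · rintro ⟨hP, φ₁, ⟨-, g₁, hg₁, h₁⟩, φ₂, ⟨-, g₂, hg₂, h₂⟩, h⟩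
    refine ⟨hP, (g₁, g₂), ⟨hg₁, hg₂⟩, fun x => ?_⟩
    rw [h x ⟨x, x.2, rfl⟩ ⟨x, x.2, rfl⟩, h₁, h₂]
    rfl
  · constructor
    · intro h
      exact Subgroup.mem_bot.2 (Prod.ext h (Subgroup.mem_bot.1 s.2.2))
    · intro h
      show (s : Ω × Ω).1 = 1
      rw [Subgroup.mem_bot.1 h]
      rfl
  · ext x
    constructor
    · rintro ⟨y, rfl⟩
      exact y.2.1
    · exact fun hx => ⟨⟨(x, 1), hx, one_mem _⟩, rfl⟩
  · rintro ⟨hP', g, hg, h⟩
    have hg' : ((g, 1) : Ω × Ω) ∈ Q.prod ⊥ := ⟨hg, one_mem _⟩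
    have hp : preimageAlong ((MonoidHom.fst Ω Ω).comp (Q.prod ⊥).subtype) P' ≤ Q.prod ⊥ := by
      rintro _ ⟨s, -, rfl⟩
      exact s.2
    refine ⟨hP', Cfsg.conjHom _ (g, 1), ⟨hp, _, hg', fun _ => rfl⟩, hp,
      fun x => (Q.prod ⊥).mul_mem ((Q.prod ⊥).mul_mem hg' (hp x.2)) ((Q.prod ⊥).inv_mem hg'),
      fun x => ?_, fun x => h _⟩
    obtain ⟨s, hs, he⟩ := x.2
    show (x : Ω × Ω).1 ∈ P'
    rw [← he]
    exact hs
  · rintro ⟨hP', φ, ⟨-, g, hg, h⟩, hp, hv, hw, hind⟩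
    refine ⟨hP', g.1, hg.1, fun y => ?_⟩
    have hy : ((y, 1) : Ω × Ω) ∈ preimageAlong ((MonoidHom.fst Ω Ω).comp (Q.prod ⊥).subtype) P' :=
      ⟨⟨(y, 1), hP' y.2, one_mem _⟩, y.2, rfl⟩
    refine (hind ⟨_, hy⟩).trans ?_
    show (φ ⟨((y : Ω), 1), hy⟩).1 = _
    rw [h]
    rfl

end Cfsg.Agent.FusionAlperin
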